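import Cfsg.Agent.Lib.Helper37.SUSmall.E3dN2b

set_option autoImplicit false

/-! # su_small wave E (helper13), piece E3dN2 (helper37) -/

namespace Cfsg.Agent.Lib.Helper37.SUSmall

open Cfsg Cfsg.Geo Matrix Cfsg.Agent.Lib.Helper5.SUAsch Cfsg.Agent.Lib.Helper13
  Cfsg.Agent.Lib.Helper9.AschU Cfsg.Agent.Lib.Helper13.SUSmall
open scoped MatrixGroups

variable {F : Type*} [Field F] [Fintype F]

omit [Fintype F] in
theorem pow_mulVec_eigen {z : Matrix (Fin 3) (Fin 3) F} {u : Fin 3 → F} {α : F}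
    (hu : z *ᵥ u = α • u) (k : ℕ) : (z ^ k) *ᵥ u = α ^ k • u := by
  induction k with
  | zero => simp
  | succ n ih =>
    rw [pow_succ, ← Matrix.mulVec_mulVec, hu, Matrix.mulVec_smul, ih, smul_smul, pow_succ, mul_comm]

/-- E3dN2 -/
theorem e3d_linear (hF : Fintype.card F = 5 ^ 2) (x z : GL (Fin 3) F)
    (hx : x ∈ GU 3 F 5) (hz : z ∈ GU 3 F 5) (hx3 : ∀ k : ℕ, (x * z ^ k) ^ 3 = 1) (hz3 : z ^ 3 = 1)
    (c : F) (hc : c ^ 3 = 1) (hc1 : c ≠ 1)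
    (hxz : (x : Matrix (Fin 3) (Fin 3) F) * (z : Matrix (Fin 3) (Fin 3) F) =
      c • ((z : Matrix (Fin 3) (Fin 3) F) * (x : Matrix (Fin 3) (Fin 3) F))) :
    ∃ (T : GL (Fin 3) F) (k : ℕ) (a ω : F), T ∈ SUg 3 F 5 ∧ a ^ 3 = 1 ∧ ω ^ 2 + ω + 1 = 0 ∧
      ((T⁻¹ * (x * z ^ k) * T : GL (Fin 3) F) : Matrix (Fin 3) (Fin 3) F) = X3 ∧
      a • ((T⁻¹ * z * T : GL (Fin 3) F) : Matrix (Fin 3) (Fin 3) F) = Z3 ω := by
  set xm : Matrix (Fin 3) (Fin 3) F := ↑x with hxm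
  set zm : Matrix (Fin 3) (Fin 3) F := ↑z with hzm
  have hxU : ∀ u v, hermForm 3 F 5 (xm *ᵥ u) (xm *ᵥ v) = hermForm 3 F 5 u v := hx
  have hzU : ∀ u v, hermForm 3 F 5 (zm *ᵥ u) (zm *ᵥ v) = hermForm 3 F 5 u v := hz
  have hzm3 : zm ^ 3 = 1 := by
    rw [hzm, ← Units.val_pow_eq_pow_val, hz3]; rfl
  have hxm3 : xm ^ 3 = 1 := by
    have := hx3 0
    rw [pow_zero, mul_one] at this
    rw [hxm, ← Units.val_pow_eq_pow_val, this]; rfl
  have hs : c ^ 2 + c + 1 = 0 := by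
    have : (c - 1) * (c ^ 2 + c + 1) = 0 := by linear_combination hc
    exact (mul_eq_zero.1 this).resolve_left (sub_ne_zero.2 hc1)
  obtain ⟨ω, hωdef⟩ : ∃ ω : F, ω = c ^ 2 := ⟨_, rfl⟩
  have hω : ω ^ 2 + ω + 1 = 0 := by
    rw [hωdef]; linear_combination (c ^ 2 - c + 1) * hs
  have hω3 : ω ^ 3 = 1 := by
    rw [hωdef]; linear_combination (c ^ 3 + 1) * hc
  have hω1 : ω ≠ 1 := by
    intro h
    apply hc1
    rw [hωdef] at h
    linear_combination hc - c * h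
  have hωω1 : ω ^ 2 ≠ 1 := by
    intro h
    apply hω1
    linear_combination hω3 - ω * h
  have hzx : zm * xm = ω • (xm * zm) := by
    rw [hxz, smul_smul]
    have : ω * c = 1 := by rw [hωdef]; linear_combination hc
    rw [this, one_smul]
  obtain ⟨a0, v, ha0, hv, hn⟩ := exists_eigen_norm hF zm hzU hzm3 c hc hc1
  -- normalisation
  have hn5 : hermForm 3 F 5 v v ^ 5 = hermForm 3 F 5 v v := hermForm_swap hF v v
  obtain ⟨l, hl⟩ := norm_surjective hF (hermForm 3 F 5 v v)⁻¹ (by rw [inv_pow, hn5])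
  obtain ⟨w0, hw0⟩ : ∃ w0, w0 = l • v := ⟨_, rfl⟩
  have z0 : zm *ᵥ w0 = a0 • w0 := by
    rw [hw0, Matrix.mulVec_smul, hv, smul_comm]
  have g00 : hermForm 3 F 5 w0 w0 = 1 := by
    rw [hw0, hermForm_smul_left, hermForm_smul_right, ← mul_assoc, ← pow_succ', hl,
      inv_mul_cancel₀ hn]
  have step : ∀ (u : Fin 3 → F) (α : F), zm *ᵥ u = α • u →
      zm *ᵥ (xm *ᵥ u) = (ω * α) • (xm *ᵥ u) := by
    intro u α hu
    rw [Matrix.mulVec_mulVec, hzx, Matrix.smul_mulVec, ← Matrix.mulVec_mulVec, hu,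
      Matrix.mulVec_smul, smul_smul]
  obtain ⟨w1, hw1⟩ : ∃ w1, w1 = xm *ᵥ w0 := ⟨_, rfl⟩
  obtain ⟨w2, hw2⟩ : ∃ w2, w2 = xm *ᵥ w1 := ⟨_, rfl⟩
  have z1 : zm *ᵥ w1 = (ω * a0) • w1 := by rw [hw1]; exact step _ _ z0
  have z2 : zm *ᵥ w2 = (ω * (ω * a0)) • w2 := by rw [hw2]; exact step _ _ z1
  have x2 : xm *ᵥ w2 = w0 := by
    rw [hw2, hw1, Matrix.mulVec_mulVec, Matrix.mulVec_mulVec]
    have : xm * xm * xm = xm ^ 3 := by rw [pow_succ, pow_succ, pow_one]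
    rw [this, hxm3, Matrix.one_mulVec]
  have g11 : hermForm 3 F 5 w1 w1 = 1 := by rw [hw1, hxU, g00]
  have g22 : hermForm 3 F 5 w2 w2 = 1 := by rw [hw2, hxU, g11]
  have ha6 : a0 ^ 6 = 1 := by linear_combination (a0 ^ 3 + 1) * ha0
  have g01 : hermForm 3 F 5 w0 w1 = 0 := herm_eq_zero_of_eigen hzU z0 z1 (by
    have : a0 * (ω * a0) ^ 5 = ω ^ 2 := by
      linear_combination ω ^ 5 * ha6 + ω ^ 2 * hω3
    rw [this]; exact hωω1)
  have g02 : hermForm 3 F 5 w0 w2 = 0 := herm_eq_zero_of_eigen hzU z0 z2 (by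
    have : a0 * (ω * (ω * a0)) ^ 5 = ω := by
      linear_combination ω ^ 10 * ha6 + (ω ^ 7 + ω ^ 4 + ω) * hω3
    rw [this]; exact hω1)
  have g12 : hermForm 3 F 5 w1 w2 = 0 := herm_eq_zero_of_eigen hzU z1 z2 (by
    have : (ω * a0) * (ω * (ω * a0)) ^ 5 = ω ^ 2 := by
      linear_combination ω ^ 11 * ha6 + (ω ^ 8 + ω ^ 5 + ω ^ 2) * hω3
    rw [this]; exact hωω1)
  have g10 : hermForm 3 F 5 w1 w0 = 0 := by rw [← hermForm_swap hF, g01]; simp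
  have g20 : hermForm 3 F 5 w2 w0 = 0 := by rw [← hermForm_swap hF, g02]; simp
  have g21 : hermForm 3 F 5 w2 w1 = 0 := by rw [← hermForm_swap hF, g12]; simp
  -- the first frame
  have gram : ∀ (d : Fin 3 → F), (∀ i, d i * d i ^ 5 = 1) →
      adj 5 (colM (fun i => d i • (![w0, w1, w2] : Fin 3 → Fin 3 → F) i)) *
        colM (fun i => d i • (![w0, w1, w2] : Fin 3 → Fin 3 → F) i) = 1 := by
    intro d hd
    ext i j
    rw [adj_colM, hermForm_smul_left, hermForm_smul_right, Matrix.one_apply]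
    fin_cases i <;> fin_cases j <;>
      simp [g00, g11, g22, g01, g02, g12, g10, g20, g21, hd]
  have hT0 := gram (fun _ => 1) (by simp)
  simp only [one_smul] at hT0
  obtain ⟨δ, hδdef⟩ : ∃ δ : F, δ = (colM (![w0, w1, w2] : Fin 3 → Fin 3 → F)).det := ⟨_, rfl⟩
  have hδ : δ ^ 6 = 1 := by
    have hmem : (⟨colM ![w0, w1, w2], adj 5 (colM ![w0, w1, w2]), mul_eq_one_comm.mp hT0, hT0⟩ :
        GL (Fin 3) F) ∈ GU 3 F 5 := (mem_GU_iff_adj hF _).2 hT0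
    have := Cfsg.Agent.Lib.Helper5.det_pow_eq_one_of_preserves hF (colM ![w0, w1, w2]) hmem
    rw [hδdef]; exact this
  obtain ⟨k, hk⟩ : ∃ k : ℕ, ω ^ k = δ ^ 2 := by
    have h0 : (δ ^ 2 - 1) * ((δ ^ 2 - ω) * (δ ^ 2 - ω ^ 2)) = 0 := by
      linear_combination hδ - (δ ^ 2) ^ 2 * hω + δ ^ 2 * hω + (δ ^ 2 - 1) * hω3
    rcases mul_eq_zero.1 h0 with h | h
    · exact ⟨0, by rw [pow_zero]; linear_combination (-1) * h⟩
    · rcases mul_eq_zero.1 h with h | h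
      · exact ⟨1, by rw [pow_one]; linear_combination (-1) * h⟩
      · exact ⟨2, by linear_combination (-1) * h⟩
  obtain ⟨A, hA⟩ : ∃ A : F, A = a0 ^ k := ⟨_, rfl⟩
  have hA3 : A ^ 3 = 1 := by rw [hA, ← pow_mul, mul_comm, pow_mul, ha0, one_pow]
  have hW3 : (ω ^ k) ^ 3 = 1 := by rw [← pow_mul, mul_comm, pow_mul, hω3, one_pow]
  obtain ⟨W, hW⟩ : ∃ W : F, W = ω ^ k := ⟨_, rfl⟩
  rw [← hW] at hk hW3
  set d : Fin 3 → F := ![δ ^ 3, δ ^ 3 * A, δ ^ 3 * A * (W * A)] with hd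
  have hd6 : ∀ i, d i * d i ^ 5 = 1 := by
    intro i
    fin_cases i
    · show δ ^ 3 * (δ ^ 3) ^ 5 = 1
      linear_combination (δ ^ 12 + δ ^ 6 + 1) * hδ
    · show δ ^ 3 * A * (δ ^ 3 * A) ^ 5 = 1
      linear_combination A ^ 6 * (δ ^ 12 + δ ^ 6 + 1) * hδ + (A ^ 3 + 1) * hA3
    · show δ ^ 3 * A * (W * A) * (δ ^ 3 * A * (W * A)) ^ 5 = 1
      linear_combination A ^ 12 * W ^ 6 * (δ ^ 12 + δ ^ 6 + 1) * hδ +
        W ^ 6 * (A ^ 9 + A ^ 6 + A ^ 3 + 1) * hA3 + (W ^ 3 + 1) * hW3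
  have hT := gram d hd6
  set t : Fin 3 → Fin 3 → F := fun i => d i • (![w0, w1, w2] : Fin 3 → Fin 3 → F) i with ht
  have hdet : (colM t).det = 1 := by
    rw [ht, det_colM_smul, ← hδdef]
    show δ ^ 3 * (δ ^ 3 * A) * (δ ^ 3 * A * (W * A)) * δ = 1
    rw [hk]
    linear_combination δ ^ 12 * hA3 + (δ ^ 6 + 1) * hδ
  have t0 : t 0 = δ ^ 3 • w0 := rfl
  have t1 : t 1 = (δ ^ 3 * A) • w1 := rfl
  have t2 : t 2 = (δ ^ 3 * A * (W * A)) • w2 := rfl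
  have rel1 : (xm * zm ^ k) * colM t = colM t * X3 := by
    rw [mul_colM, colM_X3]
    congr 1
    funext i
    fin_cases i
    · show (xm * zm ^ k) *ᵥ t 0 = t 1
      rw [t0, t1, Matrix.mulVec_smul, ← Matrix.mulVec_mulVec, pow_mulVec_eigen z0,
        Matrix.mulVec_smul, ← hw1, smul_smul, ← hA]
    · show (xm * zm ^ k) *ᵥ t 1 = t 2
      rw [t1, t2, Matrix.mulVec_smul, ← Matrix.mulVec_mulVec, pow_mulVec_eigen z1,
        Matrix.mulVec_smul, ← hw2, smul_smul, mul_pow, ← hA, ← hW]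
    · show (xm * zm ^ k) *ᵥ t 2 = t 0
      rw [t2, t0, Matrix.mulVec_smul, ← Matrix.mulVec_mulVec, pow_mulVec_eigen z2,
        Matrix.mulVec_smul, x2, smul_smul, mul_pow, mul_pow, ← hA, ← hW]
      congr 1
      linear_combination δ ^ 3 * W ^ 3 * hA3 + δ ^ 3 * hW3
  have rel2 : zm * colM t = a0 • (colM t * Z3 ω) := by
    rw [mul_colM, colM_Z3]
    ext r i
    fin_cases i
    · show (zm *ᵥ t 0) r = a0 * (t 0) r
      rw [t0, Matrix.mulVec_smul, z0]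
      simp only [Pi.smul_apply, smul_eq_mul]; ring
    · show (zm *ᵥ t 1) r = a0 * (ω • t 1) r
      rw [t1, Matrix.mulVec_smul, z1]
      simp only [Pi.smul_apply, smul_eq_mul]; ring
    · show (zm *ᵥ t 2) r = a0 * (ω ^ 2 • t 2) r
      rw [t2, Matrix.mulVec_smul, z2]
      simp only [Pi.smul_apply, smul_eq_mul]; ring
  set T : GL (Fin 3) F := ⟨colM t, adj 5 (colM t), mul_eq_one_comm.mp hT, hT⟩ with hTdef
  have hTinv : ((T⁻¹ : GL (Fin 3) F) : Matrix (Fin 3) (Fin 3) F) * colM t = 1 := hT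
  refine ⟨T, k, a0 ^ 2, ω, ?_, by linear_combination (a0 ^ 3 + 1) * ha0, hω, ?_, ?_⟩
  · refine Subgroup.mem_inf.2 ⟨(mem_GU_iff_adj hF _).2 hT, ?_⟩
    exact MonoidHom.mem_ker.2 (Units.ext hdet)
  · calc ((T⁻¹ * (x * z ^ k) * T : GL (Fin 3) F) : Matrix (Fin 3) (Fin 3) F)
        = ((T⁻¹ : GL (Fin 3) F) : Matrix (Fin 3) (Fin 3) F) * ((xm * zm ^ k) * colM t) := by
          simp only [Units.val_mul, Units.val_pow_eq_pow_val, mul_assoc]
          rfl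
      _ = X3 := by rw [rel1, ← mul_assoc, hTinv, one_mul]
  · calc a0 ^ 2 • ((T⁻¹ * z * T : GL (Fin 3) F) : Matrix (Fin 3) (Fin 3) F)
        = a0 ^ 2 • (((T⁻¹ : GL (Fin 3) F) : Matrix (Fin 3) (Fin 3) F) * (zm * colM t)) := by
          simp only [Units.val_mul, mul_assoc]
          rfl
      _ = Z3 ω := by
          rw [rel2, Matrix.mul_smul, ← mul_assoc, hTinv, one_mul, smul_smul]
          have : a0 ^ 2 * a0 = 1 := by linear_combination ha0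
          rw [this, one_smul]

end Cfsg.Agent.Lib.Helper37.SUSmall
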