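import Mathlib

set_option autoImplicit false

/-! # su_small wave C (helper13), piece E3b1: the finite computation over `ZMod 3` (helper37) -/

namespace Cfsg.Agent.Lib.Helper37.SUSmall

/-- the symmetric bilinear form with Gram matrix `[[a,b,c],[b,d,e],[c,e,f]]` -/
def bl {R : Type*} [CommRing R] (a b c d e f x0 x1 x2 y0 y1 y2 : R) : R :=
  x0 * (a * y0 + b * y1 + c * y2) + x1 * (b * y0 + d * y1 + e * y2) +
    x2 * (c * y0 + e * y1 + f * y2)

/-- its determinant -/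
def dt {R : Type*} [CommRing R] (a b c d e f : R) : R :=
  a * d * f - a * e * e - b * b * f + b * e * c + c * b * e - c * d * c

theorem map_bl {R S : Type*} [CommRing R] [CommRing S] (φ : R →+* S)
    (a b c d e f x0 x1 x2 y0 y1 y2 : R) :
    φ (bl a b c d e f x0 x1 x2 y0 y1 y2) =
      bl (φ a) (φ b) (φ c) (φ d) (φ e) (φ f) (φ x0) (φ x1) (φ x2) (φ y0) (φ y1) (φ y2) := by
  simp [bl]

theorem map_dt {R S : Type*} [CommRing R] [CommRing S] (φ : R →+* S) (a b c d e f : R) :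
    φ (dt a b c d e f) = dt (φ a) (φ b) (φ c) (φ d) (φ e) (φ f) := by
  simp [dt]

theorem bl_comm {R : Type*} [CommRing R] (a b c d e f x0 x1 x2 y0 y1 y2 : R) :
    bl a b c d e f x0 x1 x2 y0 y1 y2 = bl a b c d e f y0 y1 y2 x0 x1 x2 := by
  simp only [bl]; ring

set_option maxRecDepth 100000 in
theorem frame3 : ∀ a b c d e f : ZMod 3, dt a b c d e f ≠ 0 →
    ∃ x0 x1 x2 : ZMod 3, bl a b c d e f x0 x1 x2 x0 x1 x2 = dt a b c d e f ∧
    ∃ y0 y1 y2 : ZMod 3, bl a b c d e f x0 x1 x2 y0 y1 y2 = 0 ∧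
      bl a b c d e f y0 y1 y2 y0 y1 y2 = dt a b c d e f ∧
    ∃ z0 z1 z2 : ZMod 3, bl a b c d e f x0 x1 x2 z0 z1 z2 = 0 ∧
      bl a b c d e f y0 y1 y2 z0 z1 z2 = 0 ∧
      bl a b c d e f z0 z1 z2 z0 z1 z2 = dt a b c d e f := by
  decide +kernel

end Cfsg.Agent.Lib.Helper37.SUSmall
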