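import Cfsg.Agent.Lib.Helper13.SUSmall.Defs3
import Cfsg.Agent.Lib.Helper9.AschU.Base
import Cfsg.Agent.Lib.Helper37.SUSmall.Frame3

set_option autoImplicit false

/-! # su_small wave C (helper13), piece E3b1 (helper37) -/

namespace Cfsg.Agent.Lib.Helper37.SUSmall

open Cfsg Cfsg.Geo Matrix Cfsg.Agent.Lib.Helper5.SUAsch Cfsg.Agent.Lib.Helper13
  Cfsg.Agent.Lib.Helper9.AschU
open scoped MatrixGroups

variable {F : Type*} [Field F] [Fintype F]

theorem charP_three (hF : Fintype.card F = 3 ^ 2) : CharP F 3 := by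
  obtain ⟨p, k, hp, hchar, h3⟩ := exists_char_pow hF
  have hk : k ≠ 0 := by
    rintro rfl
    simp at h3
  have : p ∣ 3 := by
    rw [h3]; exact dvd_pow_self p hk
  have hp3 : p = 3 := (Nat.prime_dvd_prime_iff_eq hp Nat.prime_three).1 this
  rwa [hp3] at hchar

/-- the elements of the subfield with three elements -/
theorem mem_F0 (hF : Fintype.card F = 3 ^ 2) (F₀ : Subfield F)
    (hc : Fintype.card F = Nat.card F₀ ^ 2) {y : F} (hy : y ∈ F₀) : y = 0 ∨ y = 1 ∨ y = -1 := by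
  classical
  have h3 : Nat.card F₀ = 3 := by
    rw [hF] at hc
    exact (Nat.pow_left_injective (n := 2) (by norm_num) hc).symm
  have hpow : (⟨y, hy⟩ : F₀) ^ 3 = ⟨y, hy⟩ := by
    have := FiniteField.pow_card (⟨y, hy⟩ : F₀)
    rwa [← Nat.card_eq_fintype_card, h3] at this
  have hy3 : y ^ 3 = y := by
    have := congrArg (Subtype.val) hpow
    simpa using this
  have : y * ((y - 1) * (y + 1)) = 0 := by linear_combination hy3
  rcases mul_eq_zero.1 this with h | h
  · exact Or.inl h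
  · rcases mul_eq_zero.1 h with h | h
    · exact Or.inr (Or.inl (by linear_combination h))
    · exact Or.inr (Or.inr (by linear_combination h))

/-- the Gram matrix of the standard unitary form in the basis of the columns of `P` -/
def gram3 (P : Matrix (Fin 3) (Fin 3) F) : Matrix (Fin 3) (Fin 3) F :=
  fun i j => ∑ k, P k i * (P k j) ^ 3

theorem herm_expand (hF : Fintype.card F = 3 ^ 2) (P : Matrix (Fin 3) (Fin 3) F)
    (u v : Fin 3 → F) :
    hermForm 3 F 3 (P *ᵥ u) (P *ᵥ v) = ∑ i, ∑ j, u i * gram3 P i j * (v j) ^ 3 := by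
  simp only [hermForm, Matrix.mulVec, dotProduct, gram3, Fin.sum_univ_three, add_pow_q hF, mul_pow]
  ring

omit [Fintype F] in
theorem gram3_eq (P : Matrix (Fin 3) (Fin 3) F) (i j : Fin 3) :
    gram3 P i j = hermForm 3 F 3 (P *ᵥ Pi.single i 1) (P *ᵥ Pi.single j 1) := by
  simp [hermForm, gram3]

theorem gram3_det (hF : Fintype.card F = 3 ^ 2) (P : Matrix (Fin 3) (Fin 3) F) :
    (gram3 P).det = P.det * P.det ^ 3 := by
  have h : gram3 P = Pᵀ * (frobQ hF).mapMatrix P := by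
    ext i j
    simp [gram3, Matrix.mul_apply, frobQ]
  rw [h, Matrix.det_mul, Matrix.det_transpose, ← RingHom.map_det]
  rfl

/-- E3b1 -/
theorem e3b_frame (hF : Fintype.card F = 3 ^ 2) (F₀ : Subfield F) (P : GL (Fin 3) F)
    (hc : Fintype.card F = Nat.card F₀ ^ 2)
    (hr : IsFormRationalStructure (hermForm 3 F 3) F₀ 1 P) :
    ∃ (U : Fin 3 → Fin 3 → F) (ε : F), (ε = 1 ∨ ε = -1) ∧ (∀ a i, U a i ∈ F₀) ∧
      ∀ a b, hermForm 3 F 3 ((P : Matrix (Fin 3) (Fin 3) F) *ᵥ U a)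
        ((P : Matrix (Fin 3) (Fin 3) F) *ᵥ U b) = if a = b then ε else 0 := by
  classical
  have hchar : CharP F 3 := charP_three hF
  let φ : ZMod 3 →+* F := ZMod.castHom (dvd_refl 3) F
  set G := gram3 (P : Matrix (Fin 3) (Fin 3) F) with hG
  have hφmem : ∀ t : ZMod 3, φ t ∈ F₀ := by
    intro t
    have : ∀ t : ZMod 3, t = 0 ∨ t = 1 ∨ t = -1 := by decide
    rcases this t with rfl | rfl | rfl
    · rw [map_zero]; exact F₀.zero_mem
    · rw [map_one]; exact F₀.one_mem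
    · rw [map_neg, map_one]; exact F₀.neg_mem F₀.one_mem
  have hφcube : ∀ t : ZMod 3, φ t ^ 3 = φ t := by
    intro t
    have : ∀ t : ZMod 3, t ^ 3 = t := by decide
    rw [← map_pow, this]
  have hex : ∀ y ∈ F₀, ∃ t : ZMod 3, φ t = y := by
    intro y hy
    rcases mem_F0 hF F₀ hc hy with rfl | rfl | rfl
    · exact ⟨0, map_zero _⟩
    · exact ⟨1, map_one _⟩
    · exact ⟨-1, by rw [map_neg, map_one]⟩
  have hsingle : ∀ i k : Fin 3, (Pi.single i (1 : F) : Fin 3 → F) k ∈ F₀ := by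
    intro i k
    by_cases h : k = i
    · subst h; simp [F₀.one_mem]
    · simp [Pi.single_eq_of_ne h, F₀.zero_mem]
  have hGmem : ∀ i j, G i j ∈ F₀ := by
    intro i j
    have := hr (Pi.single i 1) (Pi.single j 1) (hsingle i) (hsingle j)
    rwa [one_mul, ← gram3_eq] at this
  have hGsymm : ∀ i j, G j i = G i j := by
    intro i j
    obtain ⟨t, ht⟩ := hex _ (hGmem i j)
    have h1 : G i j ^ 3 = G i j := by rw [← ht, hφcube]
    rw [← h1, hG, gram3_eq, gram3_eq, hermForm_swap hF]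
  choose g hg using fun i j => hex _ (hGmem i j)
  have hdet : G.det ≠ 0 := by
    rw [hG, gram3_det hF]
    have : (P : Matrix (Fin 3) (Fin 3) F).det ≠ 0 := by
      have := (Matrix.isUnit_iff_isUnit_det _).1 P.isUnit
      exact this.ne_zero
    exact mul_ne_zero this (pow_ne_zero _ this)
  have hdt : dt (g 0 0) (g 0 1) (g 0 2) (g 1 1) (g 1 2) (g 2 2) ≠ 0 := by
    intro h0
    apply hdet
    have := congrArg φ h0
    rw [map_dt, map_zero, hg, hg, hg, hg, hg, hg] at this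
    rw [Matrix.det_fin_three, hGsymm 0 1, hGsymm 0 2, hGsymm 1 2, ← this]
    simp only [dt]
  have key : ∀ s t : Fin 3 → ZMod 3,
      hermForm 3 F 3 ((P : Matrix (Fin 3) (Fin 3) F) *ᵥ (fun i => φ (s i)))
        ((P : Matrix (Fin 3) (Fin 3) F) *ᵥ (fun i => φ (t i))) =
      φ (bl (g 0 0) (g 0 1) (g 0 2) (g 1 1) (g 1 2) (g 2 2) (s 0) (s 1) (s 2) (t 0) (t 1) (t 2)) := by
    intro s t
    rw [herm_expand hF, map_bl, hg, hg, hg, hg, hg, hg]
    simp only [Fin.sum_univ_three, hφcube, ← hG, hGsymm 0 1, hGsymm 0 2, hGsymm 1 2, bl]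
    ring
  obtain ⟨x0, x1, x2, hxx, y0, y1, y2, hxy, hyy, z0, z1, z2, hxz, hyz, hzz⟩ := frame3 _ _ _ _ _ _ hdt
  refine ⟨fun a i => φ ((![![x0, x1, x2], ![y0, y1, y2], ![z0, z1, z2]] : Fin 3 → Fin 3 → ZMod 3) a i),
    φ (dt (g 0 0) (g 0 1) (g 0 2) (g 1 1) (g 1 2) (g 2 2)), ?_, fun a i => hφmem _, ?_⟩
  · have : ∀ t : ZMod 3, t ≠ 0 → t = 1 ∨ t = -1 := by decide
    rcases this _ hdt with h | h
    · left; rw [h, map_one]
    · right; rw [h, map_neg, map_one]
  · intro a b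
    rw [key]
    fin_cases a <;> fin_cases b <;> simp
    · exact congrArg φ hxx
    · rw [hxy]
    · rw [hxz]
    · rw [bl_comm, hxy]
    · exact congrArg φ hyy
    · rw [hyz]
    · rw [bl_comm, hxz]
    · rw [bl_comm, hyz]
    · exact congrArg φ hzz

end Cfsg.Agent.Lib.Helper37.SUSmall
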