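import Cfsg.Agent.Lib.Helper37.SUSmall.FrameLib
import Cfsg.Agent.Lib.Helper45.SubfieldQ

set_option autoImplicit false

/-! # su_small wave C (helper13), piece E3b2 (helper37) -/

namespace Cfsg.Agent.Lib.Helper37.SUSmall

open Cfsg Cfsg.Geo Matrix Cfsg.Agent.Lib.Helper5.SUAsch Cfsg.Agent.Lib.Helper13
  Cfsg.Agent.Lib.Helper9.AschU Cfsg.Agent.Lib.Helper45.SubQ
open scoped MatrixGroups

variable {F : Type*} [Field F] [Fintype F]

/-- E3b2 -/
theorem so3_q3_le_frame (hF : Fintype.card F = 3 ^ 2) (F₀ : Subfield F) (P : GL (Fin 3) F)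
    (hc : Fintype.card F = Nat.card F₀ ^ 2)
    (hr : IsFormRationalStructure (hermForm 3 F 3) F₀ 1 P) :
    ∃ D : Fin 3 → Submodule F (Fin 3 → F),
      IsNondegenerateMDecomposition (hermForm 3 F 3) 1 D ∧
      subfieldSubgroup F₀ P ⊓ SUg 3 F 3 ≤ decompositionStabilizer D := by
  classical
  obtain ⟨U, ε, hε, hU, hUU⟩ := e3b_frame hF F₀ P hc hr
  have hchar : CharP F 3 := charP_three hF
  have h3 : (3 : F) = 0 := by
    have := CharP.cast_eq_zero F 3
    exact_mod_cast this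
  set w : Fin 3 → Fin 3 → F := fun a => (P : Matrix (Fin 3) (Fin 3) F) *ᵥ U a with hw
  have hfr : Frame w ε := ⟨hε, hUU⟩
  refine ⟨fun a => Submodule.span F {w a}, hfr.decomp, ?_⟩
  intro y hy
  obtain ⟨hy1, hy2⟩ := Subgroup.mem_inf.1 hy
  have hyU : ∀ u v, hermForm 3 F 3 ((y : Matrix (Fin 3) (Fin 3) F) *ᵥ u)
      ((y : Matrix (Fin 3) (Fin 3) F) *ᵥ v) = hermForm 3 F 3 u v := (Subgroup.mem_inf.1 hy2).1
  obtain ⟨c, hcy⟩ := exists_of_mem F₀ P hy1
  let U₀ : Fin 3 → Fin 3 → F₀ := fun a i => ⟨U a i, hU a i⟩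
  have hE : ∀ a, E F₀ P (U₀ a) = w a := fun a => rfl
  choose u' hu' using fun a => hcy (U₀ a)
  simp only [hE] at hu'
  -- the coefficients
  set t : Fin 3 → Fin 3 → F := fun b a => hermForm 3 F 3 (E F₀ P (u' a)) (w b) with ht
  have htmem : ∀ b a, t b a ∈ F₀ := by
    intro b a
    have := hr (fun i => (u' a i : F)) (U b) (fun i => (u' a i).2) (hU b)
    rwa [one_mul] at this
  have ht3 : ∀ b a, t b a = 0 ∨ t b a = 1 ∨ t b a = -1 := fun b a => mem_F0 hF F₀ hc (htmem b a)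
  have htc : ∀ b a, t b a ^ 3 = t b a := by
    intro b a
    rcases ht3 b a with h | h | h <;> rw [h] <;> simp [Odd.neg_pow (by decide : Odd 3)]
  have hrel : ∀ a a', c ^ 4 * ∑ b, t b a * t b a' = if a = a' then 1 else 0 := by
    intro a a'
    have h1 := hyU (w a) (w a')
    rw [hu', hu', hfr.parseval hF, hfr.orth] at h1
    simp only [hermForm_smul_left, mul_pow] at h1
    have h2 : ∑ b, ε * (c * hermForm 3 F 3 (E F₀ P (u' a)) (w b)) *
        (c ^ 3 * hermForm 3 F 3 (E F₀ P (u' a')) (w b) ^ 3) =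
        ε * (c ^ 4 * ∑ b, t b a * t b a') := by
      rw [Finset.mul_sum, Finset.mul_sum]
      apply Finset.sum_congr rfl
      intro b _
      have := htc b a'
      simp only [ht] at this ⊢
      rw [this]
      ring
    rw [h2] at h1
    have h4 := congrArg (fun z => ε * z) h1
    simp only [← mul_assoc, hfr.eps_sq, one_mul] at h4
    rw [h4]
    split_ifs
    · exact hfr.eps_sq
    · simp
  -- the multiplier is one
  set T : Matrix (Fin 3) (Fin 3) F := Matrix.of t with hT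
  have hmat : (c ^ 4) • (Tᵀ * T) = 1 := by
    ext a a'
    rw [Matrix.smul_apply, Matrix.mul_apply, smul_eq_mul, Matrix.one_apply]
    exact hrel a a'
  have hdet : (c ^ 4) ^ 3 * (T.det * T.det) = 1 := by
    have := congrArg Matrix.det hmat
    rw [Matrix.det_smul, Matrix.det_mul, Matrix.det_transpose, Matrix.det_one] at this
    simpa using this
  have hdetmem : T.det ∈ F₀ := by
    rw [Matrix.det_fin_three]
    have m : ∀ i j, T i j ∈ F₀ := fun i j => htmem i j
    exact F₀.sub_mem (F₀.add_mem (F₀.add_mem (F₀.sub_mem (F₀.sub_mem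
      (F₀.mul_mem (F₀.mul_mem (m _ _) (m _ _)) (m _ _))
      (F₀.mul_mem (F₀.mul_mem (m _ _) (m _ _)) (m _ _)))
      (F₀.mul_mem (F₀.mul_mem (m _ _) (m _ _)) (m _ _)))
      (F₀.mul_mem (F₀.mul_mem (m _ _) (m _ _)) (m _ _)))
      (F₀.mul_mem (F₀.mul_mem (m _ _) (m _ _)) (m _ _)))
      (F₀.mul_mem (F₀.mul_mem (m _ _) (m _ _)) (m _ _))
  have hmu3 : (c ^ 4) ^ 3 = 1 := by
    rcases mem_F0 hF F₀ hc hdetmem with h | h | h <;> rw [h] at hdet <;> simpa using hdet
  have hc0 : c ≠ 0 := by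
    rintro rfl
    simp at hmu3
  have hmu2 : (c ^ 4) ^ 2 = 1 := by
    have := FiniteField.pow_card_sub_one_eq_one c hc0
    rw [hF] at this
    rw [← pow_mul]
    exact this
  have hmu : c ^ 4 = 1 := by
    calc c ^ 4 = c ^ 4 * (c ^ 4) ^ 2 := by rw [hmu2, mul_one]
      _ = (c ^ 4) ^ 3 := by ring
      _ = 1 := hmu3
  simp only [hmu, one_mul] at hrel
  -- the columns are monomial
  have hcol : ∀ a, ∃ b, t b a ≠ 0 ∧ ∀ b', b' ≠ b → t b' a = 0 := by
    intro a
    have h1 := hrel a a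
    rw [if_pos rfl, Fin.sum_univ_three] at h1
    rcases col3 h3 (ht3 0 a) (ht3 1 a) (ht3 2 a) h1 with ⟨h0, h1, h2⟩ | ⟨h0, h1, h2⟩ | ⟨h0, h1, h2⟩
    · refine ⟨0, h0, fun b' hb' => ?_⟩
      fin_cases b'
      · exact absurd rfl hb'
      · exact h1
      · exact h2
    · refine ⟨1, h1, fun b' hb' => ?_⟩
      fin_cases b'
      · exact h0
      · exact absurd rfl hb'
      · exact h2
    · refine ⟨2, h2, fun b' hb' => ?_⟩
      fin_cases b'
      · exact h0
      · exact h1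
      · exact absurd rfl hb'
  choose σ hσ1 hσ2 using hcol
  have hinj : Function.Injective σ := by
    intro a a' haa
    by_contra hne
    have h1 := hrel a a'
    rw [if_neg hne, Finset.sum_eq_single (σ a)] at h1
    · rcases mul_eq_zero.1 h1 with h | h
      · exact hσ1 a h
      · rw [haa] at h
        exact hσ1 a' h
    · intro b _ hb
      rw [hσ2 a b hb, zero_mul]
    · simp
  have himg : ∀ a, (y : Matrix (Fin 3) (Fin 3) F) *ᵥ w a = (c * (ε * t (σ a) a)) • w (σ a) := by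
    intro a
    rw [hu', hfr.expand (E F₀ P (u' a)), Finset.sum_eq_single (σ a)]
    · rw [smul_smul]
    · intro b _ hb
      have : hermForm 3 F 3 (E F₀ P (u' a)) (w b) = 0 := hσ2 a b hb
      rw [this, mul_zero, zero_smul]
    · simp
  refine ⟨Equiv.ofBijective σ (Finite.injective_iff_bijective.1 hinj), fun a => ?_⟩
  rw [Submodule.map_span, Set.image_singleton, Matrix.toLin'_apply, himg a]
  exact Submodule.span_singleton_smul_eq
    (IsUnit.mk0 _ (mul_ne_zero hc0 (mul_ne_zero hfr.eps_ne (hσ1 a)))) _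

end Cfsg.Agent.Lib.Helper37.SUSmall
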