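import Cfsg.Agent.Lib.Helper60.SUSmall.AdjK
import Cfsg.Agent.Lib.Helper5.GUOrder

set_option autoImplicit false

namespace Cfsg.Agent.Lib.Helper37.SUSmall

open Cfsg Cfsg.Geo Matrix Cfsg.Agent.Lib.Helper5.SUAsch Cfsg.Agent.Lib.Helper9.AschU
  Cfsg.Agent.Lib.Helper60.SUSmall
open scoped MatrixGroups Pointwise

variable {F : Type*} [Field F] [Fintype F]

theorem f25_five (hF : Fintype.card F = 5 ^ 2) : (5 : F) = 0 := by
  obtain ⟨p, hp⟩ := CharP.exists F
  obtain ⟨n, hpp, hn⟩ := FiniteField.card F p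
  rw [hF] at hn
  have h3 : p = 5 := by
    have h1 : p ∣ 5 ^ 2 := by rw [hn]; exact dvd_pow_self p n.ne_zero
    exact (Nat.prime_dvd_prime_iff_eq hpp Nat.prime_five).mp (hpp.dvd_of_dvd_pow h1)
  subst h3
  exact_mod_cast CharP.cast_eq_zero F 5

theorem exists_t_f25 (hF : Fintype.card F = 5 ^ 2) : ∃ t : F, t ^ 2 - 2 = 0 := by
  have h5 := f25_five hF
  have h20 : (2 : F) ≠ 0 := by
    intro h
    have : (1 : F) = 0 := by linear_combination h5 - 2 * h
    exact one_ne_zero this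
  have hchar : ringChar F ≠ 2 := by
    intro h
    have : ((2 : ℕ) : F) = 0 := by rw [← h]; exact ringChar.Nat.cast_ringChar
    exact h20 (by exact_mod_cast this)
  have h : IsSquare (2 : F) := by
    rw [FiniteField.isSquare_iff hchar h20, hF]
    norm_num
    linear_combination 819 * h5
  obtain ⟨t, ht⟩ := h
  exact ⟨t, by rw [pow_two, ← ht]; ring⟩

omit [Fintype F] in
theorem adj_zero5 {n : ℕ} : adj 5 (0 : Matrix (Fin n) (Fin n) F) = 0 := by
  ext i j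
  simp [adj]

theorem not_selfadjoint_seven25 (hF : Fintype.card F = 5 ^ 2)
    (K : Subalgebra F (Matrix (Fin 3) (Fin 3) F)) (hK : IsFieldSubalgebra 3 K)
    {lam : Matrix (Fin 3) (Fin 3) F} (hlK : lam ∈ K) (h7 : lam ^ 7 = 1) (h1 : lam ≠ 1)
    (hself : adj 5 lam = lam) : False := by
  obtain ⟨i, hi⟩ := exists_t_f25 hF
  have h5F := f25_five hF
  let _ := (isField_K hK).toField
  set L : K := ⟨lam, hlK⟩ with hL
  set cp : K := algebraMap F K i with hcp
  set cm : K := algebraMap F K (-i) with hcm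
  set c1 : K := algebraMap F K (-1) with hc1
  set c2 : K := algebraMap F K 2 with hc2
  set cn : K := algebraMap F K (-2) with hcn
  have ecp : cp ^ 2 - 2 = 0 := by
    have : (algebraMap F K) (i ^ 2 - 2) = 0 := by rw [hi, map_zero]
    rwa [map_sub, map_pow, map_ofNat] at this
  have ecm : cm = -cp := by rw [hcm, hcp, map_neg]
  have ec1 : c1 = -1 := by rw [hc1, map_neg, map_one]
  have ec2 : c2 = 2 := by rw [hc2, map_ofNat]
  have ecn : cn = -2 := by rw [hcn, map_neg, map_ofNat]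
  have h5K : (5 : K) = 0 := by
    have : (algebraMap F K) 5 = 0 := by rw [h5F, map_zero]
    rwa [map_ofNat] at this
  have hL7 : L ^ 7 = 1 := Subtype.ext h7
  have hL1 : L ≠ 1 := fun h => h1 (congrArg Subtype.val h)
  set m1 : K := L ^ 3 + cn * L ^ 2 + cm * L ^ 2 + c2 * L + cm * L + c1 with hm1
  set m2 : K := L ^ 3 + cn * L ^ 2 + cp * L ^ 2 + c2 * L + cp * L + c1 with hm2
  have hval : ∀ c : F, ((algebraMap F K c : K) : Matrix (Fin 3) (Fin 3) F) =
      c • (1 : Matrix (Fin 3) (Fin 3) F) := by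
    intro c
    rw [Subalgebra.coe_algebraMap, Algebra.algebraMap_eq_smul_one]
  have hM1 : (m1 : Matrix (Fin 3) (Fin 3) F) =
      lam ^ 3 + (-2 : F) • lam ^ 2 + (-i) • lam ^ 2 + (2 : F) • lam + (-i) • lam + (-1 : F) • 1 := by
    rw [hm1, hcm, hc1, hc2, hcn]
    simp only [Subalgebra.coe_add, Subalgebra.coe_mul, Subalgebra.coe_pow, hval,
      smul_mul_assoc, one_mul]
    rfl
  have hM2 : (m2 : Matrix (Fin 3) (Fin 3) F) =
      lam ^ 3 + (-2 : F) • lam ^ 2 + i • lam ^ 2 + (2 : F) • lam + i • lam + (-1 : F) • 1 := by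
    rw [hm2, hcp, hc1, hc2, hcn]
    simp only [Subalgebra.coe_add, Subalgebra.coe_mul, Subalgebra.coe_pow, hval,
      smul_mul_assoc, one_mul]
    rfl
  have hi5 : (-i) ^ 5 = i := by linear_combination (-i ^ 3 - 2 * i) * hi - i * h5F
  have hone5 : (-1 : F) ^ 5 = -1 := by ring
  have htwo5 : (2 : F) ^ 5 = 2 := by linear_combination 6 * h5F
  have hntwo5 : (-2 : F) ^ 5 = -2 := by linear_combination (-6) * h5F
  have hadj12 : adj 5 (m1 : Matrix (Fin 3) (Fin 3) F) = (m2 : Matrix (Fin 3) (Fin 3) F) := by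
    rw [hM1, hM2]
    simp only [adj_add hF, adj_smul, adj_pow hF, adj_one hF, hself, hi5, hone5, htwo5, hntwo5]
  have hprod : m1 * m2 = 1 + L + L ^ 2 + L ^ 3 + L ^ 4 + L ^ 5 + L ^ 6 := by
    rw [hm1, hm2, ecm, ec1, ec2, ecn]
    linear_combination (-L ^ 2 - 2 * L ^ 3 - L ^ 4) * ecp
      + (-L + L ^ 2 - 3 * L ^ 3 + L ^ 4 - L ^ 5) * h5K
  have hzero : (L - 1) * (m1 * m2) = 0 := by
    rw [hprod]; linear_combination hL7
  have h12 : m1 = 0 ∨ m2 = 0 := by
    rcases mul_eq_zero.mp hzero with h | h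
    · exact absurd (sub_eq_zero.mp h) hL1
    · exact mul_eq_zero.mp h
  have hboth : m1 = 0 ∧ m2 = 0 := by
    rcases h12 with h | h
    · refine ⟨h, Subtype.ext ?_⟩
      rw [← hadj12, h]
      exact adj_zero5
    · refine ⟨Subtype.ext ?_, h⟩
      have h3 : adj 5 (m2 : Matrix (Fin 3) (Fin 3) F) = (m1 : Matrix (Fin 3) (Fin 3) F) := by
        rw [← hadj12, adj_adj hF]
      rw [← h3, h]
      exact adj_zero5
  have hdiff : cp * (L * (L + 1)) = 0 := by
    have : m1 - m2 = 0 := by rw [hboth.1, hboth.2, sub_zero]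
    rw [hm1, hm2, ecm] at this
    linear_combination 2 * this + (cp * (L ^ 2 + L)) * h5K
  have hL0 : L ≠ 0 := by
    intro h
    rw [h] at hL7
    norm_num at hL7
  have hcp0 : cp ≠ 0 := by
    intro h
    rw [h] at ecp
    have : (1 : K) = 0 := by linear_combination h5K + 2 * ecp
    exact one_ne_zero this
  have hLm : L = -1 := by
    rcases mul_eq_zero.mp hdiff with h | h
    · exact absurd h hcp0
    · rcases mul_eq_zero.mp h with h | h
      · exact absurd h hL0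
      · linear_combination h
  rw [hLm] at hL7
  have : (1 : K) = 0 := by linear_combination h5K + 2 * hL7
  exact one_ne_zero this

theorem exists_unitary_seven25 (hF : Fintype.card F = 5 ^ 2)
    (K : Subalgebra F (Matrix (Fin 3) (Fin 3) F)) (hK : IsFieldSubalgebra 3 K)
    (hadj : IsAdjointClosedFor (hermForm 3 F 5) K) :
    ∃ lam : Matrix (Fin 3) (Fin 3) F, lam ∈ K ∧ lam ^ 7 = 1 ∧ lam ≠ 1 ∧ adj 5 lam * lam = 1 := by
  have hN : Fintype.card F ^ 3 - 1 = 15624 := by rw [hF]; norm_num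
  obtain ⟨lam, hlK, h7, h1⟩ := K_exists_prime_order hK 7 (by norm_num) (by rw [hN]; norm_num)
  refine ⟨lam, hlK, h7, h1, ?_⟩
  have hl'K : adj 5 lam ∈ K := adj_mem hF hadj hlK
  have hl'7 : (adj 5 lam) ^ 7 = 1 := by rw [← adj_pow hF, h7, adj_one hF]
  obtain ⟨a, ha, hla⟩ := K_eq_pow hK 7 (by norm_num) hlK hl'K h7 h1 hl'7
  have haa : lam ^ (a * a) = lam ^ 1 := by
    rw [pow_one, pow_mul, ← hla, ← adj_pow hF, ← hla, adj_adj hF]
  let _ := (isField_K hK).toField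
  have hL7 : (⟨lam, hlK⟩ : K) ^ 7 = 1 := Subtype.ext h7
  have hL1 : (⟨lam, hlK⟩ : K) ≠ 1 := fun h => h1 (congrArg Subtype.val h)
  have hord : orderOf (⟨lam, hlK⟩ : K) = 7 :=
    @orderOf_eq_prime _ _ _ 7 ⟨by norm_num⟩ hL7 hL1
  have hprim : IsPrimitiveRoot (⟨lam, hlK⟩ : K) 7 := hord ▸ IsPrimitiveRoot.orderOf _
  have haa' : (⟨lam, hlK⟩ : K) ^ ((a * a) % 7) = (⟨lam, hlK⟩ : K) ^ 1 := by
    rw [← pow_eq_pow_mod _ hL7]
    exact Subtype.ext haa
  have hmod : (a * a) % 7 = 1 := hprim.pow_inj (Nat.mod_lt _ (by norm_num)) (by norm_num) haa'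
  have hcases : a = 1 ∨ a = 6 := by
    interval_cases a <;> simp_all
  rcases hcases with rfl | rfl
  · exfalso
    rw [pow_one] at hla
    exact not_selfadjoint_seven25 hF K hK hlK h7 h1 hla
  · rw [hla, ← pow_succ, h7]

theorem card_GU_three25 (hF : Fintype.card F = 5 ^ 2) : Nat.card (GU 3 F 5) = 7 * 324000 := by
  rw [Cfsg.Agent.Lib.Helper5.card_GU hF 3]
  simp [Finset.prod_range_succ]

theorem conj_of_order_seven25 (hF : Fintype.card F = 5 ^ 2) (a b : GL (Fin 3) F)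
    (ha : a ∈ GU 3 F 5) (hb : b ∈ GU 3 F 5) (ha7 : a ^ 7 = 1) (ha1 : a ≠ 1)
    (hb7 : b ^ 7 = 1) (hb1 : b ≠ 1) : ∃ T ∈ GU 3 F 5, ∃ k : ℕ, T * a * T⁻¹ = b ^ k := by
  have : Fact (Nat.Prime 7) := ⟨by norm_num⟩
  have hfac : (Nat.card (GU 3 F 5)).factorization 7 = 1 := by
    rw [card_GU_three25 hF, Nat.factorization_mul (by norm_num) (by norm_num)]
    have h1 : (324000 : ℕ).factorization 7 = 0 :=
      Nat.factorization_eq_zero_of_not_dvd (by norm_num)
    simp [h1, Nat.Prime.factorization_self (by norm_num : Nat.Prime 7)]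
  have hcard : ∀ x : GU 3 F 5, x ^ 7 = 1 → x ≠ 1 →
      Nat.card (Subgroup.zpowers x) = 7 ^ (Nat.card (GU 3 F 5)).factorization 7 := by
    intro x hx hx1
    rw [hfac, pow_one, Nat.card_zpowers, orderOf_eq_prime hx hx1]
  set a' : GU 3 F 5 := ⟨a, ha⟩ with ha'
  set b' : GU 3 F 5 := ⟨b, hb⟩ with hb'
  have ha'7 : a' ^ 7 = 1 := Subtype.ext ha7
  have hb'7 : b' ^ 7 = 1 := Subtype.ext hb7
  have ha'1 : a' ≠ 1 := fun h => ha1 (congrArg Subtype.val h)
  have hb'1 : b' ≠ 1 := fun h => hb1 (congrArg Subtype.val h)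
  let P : Sylow 7 (GU 3 F 5) := Sylow.ofCard (Subgroup.zpowers a') (hcard a' ha'7 ha'1)
  let Q : Sylow 7 (GU 3 F 5) := Sylow.ofCard (Subgroup.zpowers b') (hcard b' hb'7 hb'1)
  obtain ⟨g, hg⟩ := MulAction.exists_smul_eq (GU 3 F 5) P Q
  have h1 : MulAut.conj g • a' ∈ MulAut.conj g • (P : Subgroup (GU 3 F 5)) :=
    Subgroup.smul_mem_pointwise_smul _ _ _ (Subgroup.mem_zpowers a')
  have h2 : ((g • P : Sylow 7 (GU 3 F 5)) : Subgroup (GU 3 F 5)) =
      MulAut.conj g • (P : Subgroup (GU 3 F 5)) := rfl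
  rw [← h2, hg] at h1
  have h3 : g * a' * g⁻¹ ∈ Subgroup.zpowers b' := h1
  rw [← mem_powers_iff_mem_zpowers] at h3
  obtain ⟨k, hk⟩ := h3
  refine ⟨g, g.2, k, ?_⟩
  have := congrArg Subtype.val hk
  simpa using this.symm

/-- E3cN -/
theorem e3c_normal (hF : Fintype.card F = 5 ^ 2)
    (K : Subalgebra F (Matrix (Fin 3) (Fin 3) F)) (hK : IsFieldSubalgebra 3 K)
    (hadj : IsAdjointClosedFor (hermForm 3 F 5) K)
    (l : GL (Fin 3) F) (hl : l ∈ GU 3 F 5) (h7 : l ^ 7 = 1) (h1 : l ≠ 1) :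
    ∃ T ∈ GU 3 F 5, ((T * l * T⁻¹ : GL (Fin 3) F) : Matrix (Fin 3) (Fin 3) F) ∈ K := by
  obtain ⟨lam, hlK, hl7, hl1, hu⟩ := exists_unitary_seven25 hF K hK hadj
  have hu' : lam * adj 5 lam = 1 := mul_eq_one_comm.mp hu
  set b : GL (Fin 3) F := ⟨lam, adj 5 lam, hu', hu⟩ with hb
  have hbU : b ∈ GU 3 F 5 := by
    rw [mem_GU_iff_adj hF]; exact hu
  have hb7 : b ^ 7 = 1 := Units.ext (by rw [Units.val_pow_eq_pow_val]; exact hl7)
  have hb1 : b ≠ 1 := fun h => hl1 (congrArg Units.val h)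
  obtain ⟨T, hT, k, hk⟩ := conj_of_order_seven25 hF l b hl hbU h7 h1 hb7 hb1
  refine ⟨T, hT, ?_⟩
  rw [hk, Units.val_pow_eq_pow_val]
  exact K.pow_mem hlK k

end Cfsg.Agent.Lib.Helper37.SUSmall
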