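import Cfsg.Agent.Lib.Helper13.SUSmall.Defs5d
import Cfsg.Agent.Lib.Helper9.AschU.Base
import Cfsg.Agent.Lib.Helper5.SUOrder

set_option autoImplicit false

/-! # su_small wave E (helper13), piece E3dN2: preparations (helper37) -/

namespace Cfsg.Agent.Lib.Helper37.SUSmall

open Cfsg Cfsg.Geo Matrix Cfsg.Agent.Lib.Helper5.SUAsch Cfsg.Agent.Lib.Helper13
  Cfsg.Agent.Lib.Helper9.AschU Cfsg.Agent.Lib.Helper13.SUSmall
open scoped MatrixGroups

variable {F : Type*} [Field F] [Fintype F]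

theorem five_zero25 (hF : Fintype.card F = 5 ^ 2) : (5 : F) = 0 := by
  obtain ⟨p, hp⟩ := CharP.exists F
  obtain ⟨n, hpp, hn⟩ := FiniteField.card F p
  rw [hF] at hn
  have h3 : p = 5 := by
    have h1 : p ∣ 5 ^ 2 := by rw [hn]; exact dvd_pow_self p n.ne_zero
    exact (Nat.prime_dvd_prime_iff_eq hpp Nat.prime_five).mp (hpp.dvd_of_dvd_pow h1)
  subst h3
  exact_mod_cast CharP.cast_eq_zero F 5

/-- the matrix with columns `t 0, t 1, t 2` -/
def colM (t : Fin 3 → Fin 3 → F) : Matrix (Fin 3) (Fin 3) F := Matrix.of fun r i => t i r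

omit [Fintype F] in
theorem mul_colM (M : Matrix (Fin 3) (Fin 3) F) (t : Fin 3 → Fin 3 → F) :
    M * colM t = colM (fun i => M *ᵥ t i) := by
  ext r i
  simp [colM, Matrix.mul_apply, Matrix.mulVec, dotProduct]

omit [Fintype F] in
theorem colM_X3 (t : Fin 3 → Fin 3 → F) : colM t * X3 = colM ![t 1, t 2, t 0] := by
  ext r i
  fin_cases i <;> simp [colM, X3, Matrix.mul_apply, Fin.sum_univ_three]

omit [Fintype F] in
theorem colM_Z3 (t : Fin 3 → Fin 3 → F) (ω : F) :
    colM t * Z3 ω = colM ![t 0, ω • t 1, ω ^ 2 • t 2] := by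
  ext r i
  fin_cases i <;> simp [colM, Z3, Matrix.mul_apply, Fin.sum_univ_three, mul_comm]

omit [Fintype F] in
theorem adj_colM (t : Fin 3 → Fin 3 → F) (i j : Fin 3) :
    (adj 5 (colM t) * colM t) i j = hermForm 3 F 5 (t j) (t i) := by
  simp [adj, colM, Matrix.mul_apply, hermForm, mul_comm]

omit [Fintype F] in
theorem det_colM_smul (d : Fin 3 → F) (w : Fin 3 → Fin 3 → F) :
    (colM (fun i => d i • w i)).det = (d 0 * d 1 * d 2) * (colM w).det := by
  have : colM (fun i => d i • w i) = colM w * Matrix.diagonal d := by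
    ext r i
    simp [colM, Matrix.mul_diagonal, mul_comm]
  rw [this, Matrix.det_mul, Matrix.det_diagonal, Fin.prod_univ_three, mul_comm]

omit [Fintype F] in
/-- eigenvectors of a unitary matrix for "non-conjugate" eigenvalues are orthogonal -/
theorem herm_eq_zero_of_eigen {z : Matrix (Fin 3) (Fin 3) F}
    (hz : ∀ u v, hermForm 3 F 5 (z *ᵥ u) (z *ᵥ v) = hermForm 3 F 5 u v) {u v : Fin 3 → F}
    {α β : F} (hu : z *ᵥ u = α • u) (hv : z *ᵥ v = β • v) (hαβ : α * β ^ 5 ≠ 1) :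
    hermForm 3 F 5 u v = 0 := by
  have h := hz u v
  rw [hu, hv, hermForm_smul_left, hermForm_smul_right] at h
  have h2 : (α * β ^ 5 - 1) * hermForm 3 F 5 u v = 0 := by linear_combination h
  exact (mul_eq_zero.1 h2).resolve_left (sub_ne_zero.2 hαβ)

end Cfsg.Agent.Lib.Helper37.SUSmall
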