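import Cfsg.Agent.Lib.Helper37.SUSmall.E3dN2a

set_option autoImplicit false

/-! # su_small wave E (helper13), piece E3dN2: an anisotropic eigenvector (helper37) -/

namespace Cfsg.Agent.Lib.Helper37.SUSmall

open Cfsg Cfsg.Geo Matrix Cfsg.Agent.Lib.Helper5.SUAsch Cfsg.Agent.Lib.Helper13
  Cfsg.Agent.Lib.Helper9.AschU Cfsg.Agent.Lib.Helper13.SUSmall
open scoped MatrixGroups

variable {F : Type*} [Field F] [Fintype F]

theorem exists_eigen_norm (hF : Fintype.card F = 5 ^ 2) (z : Matrix (Fin 3) (Fin 3) F)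
    (hz : ∀ u v, hermForm 3 F 5 (z *ᵥ u) (z *ᵥ v) = hermForm 3 F 5 u v)
    (hz3 : z ^ 3 = 1) (c : F) (hc : c ^ 3 = 1) (hc1 : c ≠ 1) :
    ∃ (a0 : F) (v : Fin 3 → F), a0 ^ 3 = 1 ∧ z *ᵥ v = a0 • v ∧ hermForm 3 F 5 v v ≠ 0 := by
  have h5 := five_zero25 hF
  have hs : c ^ 2 + c + 1 = 0 := by
    have : (c - 1) * (c ^ 2 + c + 1) = 0 := by linear_combination hc
    exact (mul_eq_zero.1 this).resolve_left (sub_ne_zero.2 hc1)
  have hcc1 : c ^ 2 ≠ 1 := by
    intro h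
    apply hc1
    linear_combination hc - c * h
  set u : Fin 3 → F := Pi.single 0 1 with hu
  set u1 := z *ᵥ u with hu1
  set u2 := z *ᵥ u1 with hu2
  have hu3 : z *ᵥ u2 = u := by
    rw [hu2, hu1, Matrix.mulVec_mulVec, Matrix.mulVec_mulVec]
    have : z * z * z = z ^ 3 := by rw [pow_succ, pow_succ, pow_one]
    rw [this, hz3, Matrix.one_mulVec]
  let P : F → Fin 3 → F := fun b => u + b • u1 + b ^ 2 • u2
  have eig : ∀ b : F, b ^ 3 = 1 → z *ᵥ P b = b ^ 2 • P b := by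
    intro b hb
    simp only [P, Matrix.mulVec_add, Matrix.mulVec_smul, hu3, ← hu1, ← hu2, smul_add, smul_smul]
    have e1 : b ^ 2 * b = 1 := by linear_combination hb
    have e2 : b ^ 2 * b ^ 2 = b := by linear_combination b * hb
    rw [e1, e2, one_smul]
    abel
  have hsum : P 1 + P c + P (c ^ 2) = (3 : F) • u := by
    simp only [P]
    linear_combination (norm := module) hs • u1 + ((c ^ 2 - c + 1) * hs) • u2
  have huu : hermForm 3 F 5 u u = 1 := by
    simp [hermForm, hu, Fin.sum_univ_three]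
  have hN : hermForm 3 F 5 ((3 : F) • u) ((3 : F) • u) ≠ 0 := by
    rw [hermForm_smul_left, hermForm_smul_right, huu]
    intro h
    have : (1 : F) = 0 := by linear_combination (-1) * h + 146 * h5
    exact one_ne_zero this
  have key : ∀ n, c ^ n = c ^ (n % 3) := fun n => pow_eq_pow_mod n hc
  have e1 := eig 1 (one_pow 3)
  have ec := eig c hc
  have ecc := eig (c ^ 2) (by rw [← pow_mul, key]; norm_num)
  have o12 : hermForm 3 F 5 (P 1) (P c) = 0 := herm_eq_zero_of_eigen hz e1 ec (by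
    rw [show (1 : F) ^ 2 * (c ^ 2) ^ 5 = c ^ 10 by ring, key 10]; simpa using hc1)
  have o13 : hermForm 3 F 5 (P 1) (P (c ^ 2)) = 0 := herm_eq_zero_of_eigen hz e1 ecc (by
    rw [show (1 : F) ^ 2 * ((c ^ 2) ^ 2) ^ 5 = c ^ 20 by ring, key 20]; simpa using hcc1)
  have o21 : hermForm 3 F 5 (P c) (P 1) = 0 := herm_eq_zero_of_eigen hz ec e1 (by
    rw [show c ^ 2 * ((1 : F) ^ 2) ^ 5 = c ^ 2 by ring]; exact hcc1)
  have o23 : hermForm 3 F 5 (P c) (P (c ^ 2)) = 0 := herm_eq_zero_of_eigen hz ec ecc (by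
    rw [show c ^ 2 * ((c ^ 2) ^ 2) ^ 5 = c ^ 22 by ring, key 22]; simpa using hc1)
  have o31 : hermForm 3 F 5 (P (c ^ 2)) (P 1) = 0 := herm_eq_zero_of_eigen hz ecc e1 (by
    rw [show (c ^ 2) ^ 2 * ((1 : F) ^ 2) ^ 5 = c ^ 4 by ring, key 4]; simpa using hc1)
  have o32 : hermForm 3 F 5 (P (c ^ 2)) (P c) = 0 := herm_eq_zero_of_eigen hz ecc ec (by
    rw [show (c ^ 2) ^ 2 * (c ^ 2) ^ 5 = c ^ 14 by ring, key 14]; simpa using hcc1)
  rw [← hsum] at hN
  simp only [hermForm_add_left, hermForm_add_right hF, o12, o13, o21, o23, o31, o32, add_zero,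
    zero_add] at hN
  by_contra hcon
  push Not at hcon
  apply hN
  rw [hcon _ _ (by rw [← pow_mul]; norm_num) e1, hcon _ _ (by rw [← pow_mul, key]; norm_num) ec,
    hcon _ _ (by rw [← pow_mul, ← pow_mul, key]; norm_num) ecc]
  simp

end Cfsg.Agent.Lib.Helper37.SUSmall
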