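import Cfsg.Agent.Lib.Helper37.SUSmall.E3b1

set_option autoImplicit false

/-! # su_small wave C (helper13), piece E3b2: frames of the unitary 3-space (helper37) -/

namespace Cfsg.Agent.Lib.Helper37.SUSmall

open Cfsg Cfsg.Geo Matrix Cfsg.Agent.Lib.Helper5.SUAsch Cfsg.Agent.Lib.Helper13
  Cfsg.Agent.Lib.Helper9.AschU
open scoped MatrixGroups

variable {F : Type*} [Field F] [Fintype F]

/-- an orthogonal frame with constant norm `ε = ±1` -/
structure Frame (w : Fin 3 → Fin 3 → F) (ε : F) : Prop where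
  eps : ε = 1 ∨ ε = -1
  orth : ∀ a b, hermForm 3 F 3 (w a) (w b) = if a = b then ε else 0

variable {w : Fin 3 → Fin 3 → F} {ε : F}

omit [Fintype F] in
theorem Frame.eps_sq (h : Frame w ε) : ε * ε = 1 := by
  rcases h.eps with rfl | rfl <;> simp

omit [Fintype F] in
theorem Frame.eps_ne (h : Frame w ε) : ε ≠ 0 := by
  intro h0
  have := h.eps_sq
  rw [h0] at this
  simp at this

omit [Fintype F] in
theorem herm_sum_left (w : Fin 3 → Fin 3 → F) (r : Fin 3 → F) (v : Fin 3 → F) :
    hermForm 3 F 3 (∑ b, r b • w b) v = ∑ b, r b * hermForm 3 F 3 (w b) v := by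
  simp only [Fin.sum_univ_three, hermForm_add_left, hermForm_smul_left]

omit [Fintype F] in
theorem Frame.coeff (h : Frame w ε) (r : Fin 3 → F) (b : Fin 3) :
    hermForm 3 F 3 (∑ a, r a • w a) (w b) = r b * ε := by
  rw [herm_sum_left]
  simp only [h.orth]
  rw [Finset.sum_eq_single b]
  · simp
  · intro a _ hab
    simp [hab]
  · simp

omit [Fintype F] in
theorem Frame.linearIndependent (h : Frame w ε) : LinearIndependent F w := by
  rw [Fintype.linearIndependent_iff]
  intro r hr b
  have := h.coeff r b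
  rw [hr] at this
  have h0 : hermForm 3 F 3 (0 : Fin 3 → F) (w b) = 0 := by simp [hermForm]
  rw [h0] at this
  exact (mul_eq_zero.1 this.symm).resolve_right h.eps_ne

omit [Fintype F] in
theorem Frame.span_eq_top (h : Frame w ε) : Submodule.span F (Set.range w) = ⊤ :=
  h.linearIndependent.span_eq_top_of_card_eq_finrank (by simp)

omit [Fintype F] in
theorem Frame.expand (h : Frame w ε) (v : Fin 3 → F) :
    v = ∑ b, (ε * hermForm 3 F 3 v (w b)) • w b := by
  have hv : v ∈ Submodule.span F (Set.range w) := by rw [h.span_eq_top]; trivial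
  obtain ⟨r, rfl⟩ := (Submodule.mem_span_range_iff_exists_fun F).1 hv
  apply Finset.sum_congr rfl
  intro b _
  rw [h.coeff r b]
  congr 1
  linear_combination (-(r b)) * h.eps_sq

theorem Frame.parseval (hF : Fintype.card F = 3 ^ 2) (h : Frame w ε) (v v' : Fin 3 → F) :
    hermForm 3 F 3 v v' =
      ∑ b, ε * hermForm 3 F 3 v (w b) * (hermForm 3 F 3 v' (w b)) ^ 3 := by
  conv_lhs => rw [h.expand v]
  rw [herm_sum_left]
  apply Finset.sum_congr rfl
  intro b _
  rw [hermForm_swap hF]

omit [Fintype F] in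
theorem Frame.ne_zero (h : Frame w ε) (a : Fin 3) : w a ≠ 0 := by
  intro h0
  have := h.orth a a
  rw [h0] at this
  simp [hermForm] at this
  exact h.eps_ne this.symm

omit [Fintype F] in
theorem Frame.decomp (h : Frame w ε) :
    IsNondegenerateMDecomposition (hermForm 3 F 3) 1 (fun a => Submodule.span F {w a}) where
  decomp :=
    { two_le := by norm_num
      pos := by norm_num
      finrank_eq := fun a => finrank_span_singleton (h.ne_zero a)
      indep := h.linearIndependent.iSupIndep_span_singleton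
      iSup_eq_top := by rw [← Submodule.span_range_eq_iSup, h.span_eq_top] }
  nondegenerate := by
    intro i x hx hx0
    obtain ⟨c, rfl⟩ := Submodule.mem_span_singleton.1 hx
    have hc : c ≠ 0 := by
      rintro rfl
      simp at hx0
    refine ⟨⟨w i, Submodule.mem_span_singleton_self _, ?_⟩,
      ⟨w i, Submodule.mem_span_singleton_self _, ?_⟩⟩
    · rw [hermForm_smul_right, h.orth, if_pos rfl]
      exact mul_ne_zero (pow_ne_zero _ hc) h.eps_ne
    · rw [hermForm_smul_left, h.orth, if_pos rfl]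
      exact mul_ne_zero hc h.eps_ne
  orthogonal := by
    intro i j hij u hu v hv
    obtain ⟨c, rfl⟩ := Submodule.mem_span_singleton.1 hu
    obtain ⟨d, rfl⟩ := Submodule.mem_span_singleton.1 hv
    rw [hermForm_smul_right, hermForm_smul_left, h.orth, if_neg hij]
    simp

omit [Fintype F] in
/-- a column of norm one over the field with three elements has exactly one non-zero entry -/
theorem col3 (h3 : (3 : F) = 0) {p q r : F} (hp : p = 0 ∨ p = 1 ∨ p = -1)
    (hq : q = 0 ∨ q = 1 ∨ q = -1) (hr : r = 0 ∨ r = 1 ∨ r = -1) (h : p * p + q * q + r * r = 1) :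
    (p ≠ 0 ∧ q = 0 ∧ r = 0) ∨ (p = 0 ∧ q ≠ 0 ∧ r = 0) ∨ (p = 0 ∧ q = 0 ∧ r ≠ 0) := by
  have sq : ∀ x : F, (x = 0 ∨ x = 1 ∨ x = -1) → (x = 0 ∧ x * x = 0) ∨ (x ≠ 0 ∧ x * x = 1) := by
    intro x hx
    rcases hx with rfl | rfl | rfl
    · left; simp
    · right; simp
    · right; simp
  rcases sq p hp with ⟨p0, pp⟩ | ⟨p0, pp⟩ <;> rcases sq q hq with ⟨q0, qq⟩ | ⟨q0, qq⟩ <;>
    rcases sq r hr with ⟨r0, rr⟩ | ⟨r0, rr⟩ <;> rw [pp, qq, rr] at h
  · simp at h
  · exact Or.inr (Or.inr ⟨p0, q0, r0⟩)
  · exact Or.inr (Or.inl ⟨p0, q0, r0⟩)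
  · exfalso
    have : (1 : F) = 0 := by linear_combination h
    exact one_ne_zero this
  · exact Or.inl ⟨p0, q0, r0⟩
  · exfalso
    have : (1 : F) = 0 := by linear_combination h
    exact one_ne_zero this
  · exfalso
    have : (1 : F) = 0 := by linear_combination h
    exact one_ne_zero this
  · exfalso
    have : (1 : F) = 0 := by linear_combination h3 - h
    exact one_ne_zero this

end Cfsg.Agent.Lib.Helper37.SUSmall
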